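import Mathlib
import Cfsg.Agent.H905.MdB
import Cfsg.Agent.H248.TitsRGD
import Cfsg.Agent.KFacts.RgdSyl
import Cfsg.Agent.H505.Cop.Red

/-!
# Coprime orbits in the defining characteristic (helper563)

`R : RGD cs h p T n X` with commutative torus, `G = ⟨T, X⟩`.  If `ρ` is irreducible in characteristic `p`, `A ≥ U` and
`V^A ≠ 0` then `(V*)^{A⁻} ≠ 0` for a subgroup `A⁻` with `|A⁻| = |A|`.

* `normal_of_U` : `P_J` normalises `A`;
* `fx_le` : `A` fixes `V^{V_J}`; `dual_fix` : `A ∩ L_J` fixes the functionals fixed by the opposite radical;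
* `index_eq` : the indices of `A` and of `A⁻` agree;
* `copRow_char` : the row predicate in characteristic `p`.
-/

set_option autoImplicit false
set_option linter.unusedSectionVars false
set_option linter.style.haveILetI false

namespace Cfsg.Agent.H563.CopRgd

open CoxeterSystem Cfsg.Agent.ChevalleyStructure.CoxeterGeom Cfsg.Agent.Tits.Roots Cfsg.Agent.Tits.Core
  Cfsg.Agent.Tits.Exchange Cfsg.Agent.Nodes.Reps Cfsg.Agent.Nodes.BNOf Cfsg.Agent.Nodes.StabComb
  Cfsg.Agent.Nodes.Bruhat Cfsg.Agent.Nodes.OppDec Cfsg.Agent.Nodes.LeviDec Cfsg.Agent.KFacts.RgdOpp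
  Cfsg.Agent.Omega.CR Cfsg.Agent.Omega.FOne.Lift.Sd Cfsg.Agent.H905.Md Cfsg.Agent.H248.TitsRGD

section group

variable {G : Type*} [Group G]

theorem relIndex_dvd_of_sup [Finite G] {U T : Subgroup G}
    (hT : T ≤ Subgroup.normalizer (U : Set G)) : T.relIndex (U ⊔ T) ∣ Nat.card U := by
  have hU : U ≤ U ⊔ T := le_sup_left
  have hT' : T ≤ U ⊔ T := le_sup_right
  have hN : (U.subgroupOf (U ⊔ T)).Normal :=
    Subgroup.normal_subgroupOf_of_le_normalizer (sup_le Subgroup.le_normalizer hT)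
  have h1 : T.subgroupOf (U ⊔ T) ⊔ U.subgroupOf (U ⊔ T) = ⊤ := by
    rw [← Subgroup.subgroupOf_sup hT' hU, sup_comm T U, Subgroup.subgroupOf_self]
  have h2 := Subgroup.relIndex_sup_right (T.subgroupOf (U ⊔ T)) (U.subgroupOf (U ⊔ T))
  rw [h1, Subgroup.relIndex_top_right] at h2
  have h3 : (U.subgroupOf (U ⊔ T)).index ∣ Nat.card T := by
    rw [h2, ← Nat.card_congr (Subgroup.subgroupOfEquivOfLe hT').toEquiv]
    exact Subgroup.relIndex_dvd_card _ _
  have h4 : Nat.card U * (U.subgroupOf (U ⊔ T)).index = Nat.card ↥(U ⊔ T) := by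
    rw [← Nat.card_congr (Subgroup.subgroupOfEquivOfLe hU).toEquiv]
    exact (U.subgroupOf (U ⊔ T)).card_mul_index
  have h5 : Nat.card T * T.relIndex (U ⊔ T) = Nat.card ↥(U ⊔ T) := by
    rw [Subgroup.relIndex, ← Nat.card_congr (Subgroup.subgroupOfEquivOfLe hT').toEquiv]
    exact (T.subgroupOf (U ⊔ T)).card_mul_index
  have h6 : Nat.card T * T.relIndex (U ⊔ T) ∣ Nat.card T * Nat.card U := by
    rw [h5, ← h4, mul_comm]
    exact Nat.mul_dvd_mul_right h3 _
  exact Nat.dvd_of_mul_dvd_mul_left Nat.card_pos h6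

/-- two subgroups of index prime to `p` containing `C` with index a power of `p` -/
theorem index_eq_of [Finite G] {p : ℕ} [hp : Fact p.Prime] {A B C : Subgroup G} (hA : ¬ p ∣ A.index)
    (hB : ¬ p ∣ B.index) (hCA : C ≤ A) (hCB : C ≤ B) {a b : ℕ} (ha : C.relIndex A = p ^ a)
    (hb : C.relIndex B = p ^ b) : A.index = B.index := by
  have h1 : p ^ a * A.index = p ^ b * B.index := by
    rw [← ha, ← hb, Subgroup.relIndex_mul_index hCA, Subgroup.relIndex_mul_index hCB]
  have h2 : a = b := by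
    have h3 := congrArg (fun m => m.factorization p) h1
    rw [Nat.factorization_mul (pow_ne_zero _ hp.out.ne_zero) Subgroup.index_ne_zero_of_finite,
      Nat.factorization_mul (pow_ne_zero _ hp.out.ne_zero) Subgroup.index_ne_zero_of_finite,
      hp.out.factorization_pow, hp.out.factorization_pow] at h3
    simp only [Finsupp.add_apply, Finsupp.single_eq_same, Nat.factorization_eq_zero_of_not_dvd hA,
      Nat.factorization_eq_zero_of_not_dvd hB, add_zero] at h3
    exact h3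
  rw [h2] at h1
  exact Nat.eq_of_mul_eq_mul_left (pow_pos hp.out.pos _) h1

theorem exists_conj_le_of_index [Finite G] {p : ℕ} [hp : Fact p.Prime] {P U : Subgroup G} (hU : IsPGroup p U)
    (hPi : ¬ p ∣ P.index) : ∃ g : G, U ≤ P.map (MulAut.conj g).toMonoidHom := by
  obtain ⟨Q₀⟩ : Nonempty (Sylow p P) := inferInstance
  have h1 : ¬ p ∣ ((Q₀ : Subgroup P).map P.subtype).index := by
    rw [Subgroup.index_map_subtype]
    intro hd
    rcases hp.out.dvd_mul.mp hd with h | h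
    · exact Q₀.not_dvd_index h
    · exact hPi h
  have h2 : IsPGroup p ((Q₀ : Subgroup P).map P.subtype) := Q₀.isPGroup'.map _
  obtain ⟨Q, hQ⟩ := hU.exists_le_sylow
  obtain ⟨g, hg⟩ := MulAction.exists_smul_eq G (h2.toSylow h1) Q
  refine ⟨g, hQ.trans ?_⟩
  rw [← hg]
  change ((Q₀ : Subgroup P).map P.subtype).map (MulAut.conj g).toMonoidHom ≤ _
  exact Subgroup.map_mono (Subgroup.map_subtype_le _)

end group

variable {I W Y : Type*} [Fintype I] [DecidableEq I] [Group W] [Group Y] {M : CoxeterMatrix I}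
  {cs : CoxeterSystem M W} {A : I → I → ℤ} {h : IsCartan M A} {p : ℕ} {T : Subgroup Y} {n : I → Y}
  {X : (I → ℤ) → Subgroup Y}

section norm

variable (R : RGD cs h p T n X)
include R

/-- `P_J` normalises an overgroup of `U` of type `J`, when the torus is commutative -/
theorem normal_of_U [Finite W] (hT : ∀ s ∈ T, ∀ t ∈ T, s * t = t * s) {P : Subgroup Y}
    (hP : RGD.Sup X (RGD.Pos cs h) ≤ P) (hG : P ≤ GG cs h T X) :
    LJ cs h T X (JU T n P) ≤ Subgroup.normalizer (P : Set Y) := by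
  have hle : P ≤ PJ cs h T X (JU T n P) := le_PJ R hP hG
  -- the torus normalises `P`
  set E : Subgroup Y := RGD.Sup X (RootsJ cs h (JU T n P)) with hE
  have hEP : E ≤ P := RGD.Sup_le fun x hx => X_le R hP hx
  have hVP : VJ cs h X (JU T n P) ≤ P := VJ_le R hP _
  have hTE : T ≤ Subgroup.normalizer (E : Set Y) := R.T_le_normalizer fun _ hx => hx.1
  have hTV : T ≤ Subgroup.normalizer (VJ cs h X (JU T n P) : Set Y) :=
    le_trans T_le_LJ (LJ_le_normalizer_VJ R _)
  have hdec : ∀ g ∈ P, ∃ t ∈ T, ∃ e ∈ E, ∃ v ∈ VJ cs h X (JU T n P), g = t * e * v := by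
    intro g hg
    obtain ⟨l, hl, v, hv, rfl⟩ := (mem_PJ R).1 (hle hg)
    have h1 : l ∈ ((T ⊔ E : Subgroup Y) : Set Y) := hl
    rw [Subgroup.coe_mul_of_left_le_normalizer_right _ _ hTE, Set.mem_mul] at h1
    obtain ⟨t, ht, e, he, rfl⟩ := h1
    exact ⟨t, ht, e, he, v, hv, rfl⟩
  have hTP : T ≤ Subgroup.normalizer (P : Set Y) := by
    have key : ∀ s ∈ T, ∀ g ∈ P, s * g * s⁻¹ ∈ P := by
      intro s hs g hg
      obtain ⟨t, ht, e, he, v, hv, rfl⟩ := hdec g hg
      have htP : t ∈ P := by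
        have : t = (t * e * v) * v⁻¹ * e⁻¹ := by group
        rw [this]
        exact mul_mem (mul_mem hg (inv_mem (hVP hv))) (inv_mem (hEP he))
      have e1 : s * (t * e * v) * s⁻¹ = t * (s * e * s⁻¹) * (s * v * s⁻¹) := by
        have h2 : s * t = t * s := hT s hs t ht
        calc s * (t * e * v) * s⁻¹ = (s * t) * e * v * s⁻¹ := by group
          _ = (t * s) * e * v * s⁻¹ := by rw [h2]
          _ = _ := by group
      rw [e1]
      exact mul_mem (mul_mem htP (hEP ((Subgroup.mem_normalizer_iff.1 (hTE hs) e).1 he)))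
        (hVP ((Subgroup.mem_normalizer_iff.1 (hTV hs) v).1 hv))
    intro s hs
    rw [Subgroup.mem_normalizer_iff]
    intro g
    refine ⟨key s hs g, fun hg => ?_⟩
    have := key s⁻¹ (inv_mem hs) _ hg
    have e2 : s⁻¹ * (s * g * s⁻¹) * s⁻¹⁻¹ = g := by group
    rwa [e2] at this
  exact sup_le hTP (hEP.trans Subgroup.le_normalizer)

/-- `P = (P ∩ L_J) V_J` -/
theorem eq_sup [Finite W] {P : Subgroup Y} (hP : RGD.Sup X (RGD.Pos cs h) ≤ P) (hG : P ≤ GG cs h T X) :
    P = VJ cs h X (JU T n P) ⊔ (P ⊓ LJ cs h T X (JU T n P)) := by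
  apply le_antisymm
  · intro g hg
    obtain ⟨l, hl, v, hv, rfl⟩ := (mem_PJ R).1 (le_PJ R hP hG hg)
    have hlP : l ∈ P := by
      have : l = (l * v) * v⁻¹ := by group
      rw [this]
      exact mul_mem hg (inv_mem (VJ_le R hP _ hv))
    exact mul_mem (le_sup_right (a := VJ cs h X (JU T n P)) ⟨hlP, hl⟩)
      (le_sup_left (b := P ⊓ LJ cs h T X (JU T n P)) hv)
  · exact sup_le (VJ_le R hP _) inf_le_left

end norm

section index

variable (R : RGD cs h p T n X) [Finite Y] [Finite W] [hp : Fact p.Prime]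
include R

/-- the opposite of an overgroup of `U` -/
def Opp (cs : CoxeterSystem M W) (h : IsCartan M A) (T : Subgroup Y) (n : I → Y) (X : (I → ℤ) → Subgroup Y)
    (P : Subgroup Y) : Subgroup Y := VNJ cs h X (JU T n P) ⊔ (P ⊓ LJ cs h T X (JU T n P))

theorem UN_le_Opp {P : Subgroup Y} (hP : RGD.Sup X (RGD.Pos cs h) ≤ P) : UN cs h X ≤ Opp cs h T n X P := by
  refine RGD.Sup_le fun x hx => ?_
  have h1 := hx.1.neg
  rcases mem_PosJ_or_NotJ (JU T n P) h1 (neg_nonneg.2 hx.2) with h2 | h2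
  · have h3 : x ∈ RootsJ cs h (JU T n P) := by
      have := RootsJ.neg (PosJ_subset _ h2)
      rwa [neg_neg] at this
    exact le_trans (le_inf (X_le R hP h3) (X_le_LJ h3)) le_sup_right
  · exact le_trans (RGD.le_Sup (S := NotNJ cs h (JU T n P)) h2) le_sup_left

theorem index_Opp (hG : GG cs h T X = ⊤) {P : Subgroup Y} (hP : RGD.Sup X (RGD.Pos cs h) ≤ P) :
    P.index = (Opp cs h T n X P).index := by
  have hPG : P ≤ GG cs h T X := by rw [hG]; exact le_top
  set C := P ⊓ LJ cs h T X (JU T n P) with hC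
  have hCV : C ≤ Subgroup.normalizer (VJ cs h X (JU T n P) : Set Y) :=
    inf_le_right.trans (LJ_le_normalizer_VJ R _)
  have hCVN : C ≤ Subgroup.normalizer (VNJ cs h X (JU T n P) : Set Y) :=
    inf_le_right.trans (LJ_le_normalizer_VNJ R _)
  have hU : ¬ p ∣ (RGD.Sup X (RGD.Pos cs h)).index := by
    have := Cfsg.Agent.KFacts.RgdSyl.not_dvd_relIndex R
    rwa [hG, Subgroup.relIndex_top_right] at this
  have hUN : ¬ p ∣ (UN cs h X).index := by
    have := Cfsg.Agent.KFacts.RgdSyl.not_dvd_relIndex (opp R)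
    rwa [GG_opp, hG, Subgroup.relIndex_top_right, U_opp] at this
  obtain ⟨a, ha⟩ : ∃ a, Nat.card (VJ cs h X (JU T n P)) = p ^ a :=
    (IsPGroup.iff_card).1 (R.isPGroup_of_pos (S := NotJ cs h (JU T n P)) fun _ hx => ⟨hx.1, hx.2.1⟩)
  obtain ⟨b, hb⟩ : ∃ b, Nat.card (VNJ cs h X (JU T n P)) = p ^ b := by
    rw [← VJ_opp]
    exact (IsPGroup.iff_card).1 ((opp R).isPGroup_of_pos (S := NotJ cs h (JU T n P)) fun _ hx => ⟨hx.1, hx.2.1⟩)
  have h1 := relIndex_dvd_of_sup hCV
  have h2 := relIndex_dvd_of_sup hCVN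
  rw [ha, Nat.dvd_prime_pow hp.out] at h1
  rw [hb, Nat.dvd_prime_pow hp.out] at h2
  obtain ⟨a', -, ha'⟩ := h1
  obtain ⟨b', -, hb'⟩ := h2
  rw [← eq_sup R hP hPG] at ha'
  refine index_eq_of (p := p) (C := C) ?_ ?_ inf_le_left le_sup_right ha' hb'
  · exact fun hd => hU (hd.trans (Subgroup.index_dvd_of_le hP))
  · exact fun hd => hUN (hd.trans (Subgroup.index_dvd_of_le (UN_le_Opp R hP)))

end index

section rep

variable {k V : Type*} [Field k] [AddCommGroup V] [Module k V]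

variable (R : RGD cs h p T n X) [Finite Y] [Finite W] [hp : Fact p.Prime] [CharP k p]
  {ρ : Y →* Module.End k V} [FiniteDimensional k V]
  (hirr : ∀ L : Submodule k V, Ivt ρ (GG cs h T X) L → L = ⊥ ∨ L = ⊤)
include R hirr

/-- an overgroup of `U` with a nonzero fixed vector fixes `V^{V_J}` -/
theorem fx_le [Nontrivial V] (hT : ∀ s ∈ T, ∀ t ∈ T, s * t = t * s) {P : Subgroup Y}
    (hP : RGD.Sup X (RGD.Pos cs h) ≤ P) (hG : P ≤ GG cs h T X) (hfx : fx ρ P ≠ ⊥) :
    fx ρ (VJ cs h X (JU T n P)) ≤ fx ρ P := by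
  rw [← Le_eq R hirr (JU T n P)]
  refine Le_le R hirr hfx (fun v hv b hb => hv b (VJ_le R hP _ hb)) ?_
  exact fx_Ivt (normal_of_U R hT hP hG)

/-- the opposite subgroup has a nonzero fixed functional -/
theorem exists_dual [Nontrivial V] (hT : ∀ s ∈ T, ∀ t ∈ T, s * t = t * s) {P : Subgroup Y}
    (hP : RGD.Sup X (RGD.Pos cs h) ≤ P) (hG : P ≤ GG cs h T X) (hfx : fx ρ P ≠ ⊥) :
    ∃ φ : Module.Dual k V, φ ≠ 0 ∧ ∀ g ∈ Opp cs h T n X P, ∀ v, φ (ρ g v) = φ v := by
  obtain ⟨c, hc, hc0⟩ := (Submodule.ne_bot_iff _).1 (simp_fx R ρ hirr).ne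
  obtain ⟨φ, hφ, hne⟩ := exists_pair_D R hirr hc hc0
  have hφ0 : φ ≠ 0 := by
    rintro rfl
    exact hne rfl
  have h1 : φ ∈ fx (dualRep ρ) (VNJ cs h X (JU T n P)) := fun b hb => hφ b (VNJ_le_UN _ hb)
  have h2 : φ ∈ fx (dualRep ρ) (P ⊓ LJ cs h T X (JU T n P)) := by
    intro b hb
    rw [← sub_eq_zero]
    refine pair_fx' R hirr (J := JU T n P) ?_ ?_
    · refine Submodule.sub_mem _ ?_ h1
      exact fx_Ivt (LJ_le_normalizer_VNJ R _) b hb.2 φ h1
    · intro v hv
      rw [Le_eq R hirr] at hv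
      have h3 := fx_le R hirr hT hP hG hfx hv b⁻¹ (inv_mem hb.1)
      rw [LinearMap.sub_apply, dualRep_apply, h3, sub_self]
  have h3 : φ ∈ fx (dualRep ρ) (Opp cs h T n X P) := by
    unfold Opp
    rw [fx_sup]
    exact ⟨h1, h2⟩
  exact ⟨φ, hφ0, (mem_fx_dual ρ).1 h3⟩

end rep

open Cfsg.Agent.H505.Cop in
/-- **The row predicate in characteristic `p`** for a group with root group data and commutative torus. -/
theorem copRow_char (R : RGD cs h p T n X) [Finite Y] [Finite W] [hp : Fact p.Prime]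
    (hT : ∀ s ∈ T, ∀ t ∈ T, s * t = t * s) (hG : GG cs h T X = ⊤)
    {k V : Type*} [Field k] [AddCommGroup V] [Module k V] [CharP k p] [FiniteDimensional k V]
    (ρ : Representation k Y V) (hirr : Irr ρ) (hnt : Nontriv ρ) {B C : Subgroup Y}
    (hcop : B.index.Coprime C.index) {b c : V} (hb : ∀ x ∈ B, ρ x b = b) (hc : ∀ x ∈ C, ρ x c = c) :
    b = 0 ∨ c = 0 := by
  have hirr' : ∀ L : Submodule k V, Ivt (ρ : Y →* Module.End k V) (GG cs h T X) L → L = ⊥ ∨ L = ⊤ := by
    intro L hL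
    exact hirr L fun g w hw => hL g (by rw [hG]; trivial) w hw
  -- it is enough to consider `B` of index prime to `p`
  have key : ∀ (B C : Subgroup Y), B.index.Coprime C.index → ¬ p ∣ B.index → ∀ b c : V, (∀ x ∈ B, ρ x b = b) →
      (∀ x ∈ C, ρ x c = c) → b = 0 ∨ c = 0 := by
    intro B C hcop hpB b c hb hc
    by_contra hcon
    push Not at hcon
    obtain ⟨hb0, hc0⟩ := hcon
    have hV : Nontrivial V := ⟨b, 0, hb0⟩
    obtain ⟨g, hg⟩ := exists_conj_le_of_index (U := RGD.Sup X (RGD.Pos cs h)) (R.isPGroup_of_pos (S := RGD.Pos cs h) fun _ hx => hx) hpB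
    set P := B.map (MulAut.conj g).toMonoidHom with hP
    have hPG : P ≤ GG cs h T X := by rw [hG]; exact le_top
    have hfx : fx (ρ : Y →* Module.End k V) P ≠ ⊥ := by
      rw [Submodule.ne_bot_iff]
      refine ⟨ρ g b, ?_, ?_⟩
      · rintro _ ⟨x, hx, rfl⟩
        change ρ (g * x * g⁻¹) (ρ g b) = ρ g b
        rw [rho_mul_apply, rho_inv_apply, rho_mul_apply, hb x hx]
      · intro h0
        apply hb0
        have := congrArg (ρ g⁻¹) h0
        rwa [rho_inv_apply, map_zero] at this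
    obtain ⟨φ, hφ0, hφ⟩ := exists_dual R (ρ := (ρ : Y →* Module.End k V)) hirr' hT hg hPG hfx
    have hidx : P.index = B.index := Subgroup.index_map_equiv B (MulAut.conj g)
    rw [index_Opp R hG hg] at hidx
    rcases pairing hirr hnt C (Opp cs h T n X P) (by rw [hidx]; exact hcop.symm) c hc φ hφ with h1 | h1
    · exact hc0 h1
    · exact hφ0 h1
  by_cases hpB : p ∣ B.index
  · have hpC : ¬ p ∣ C.index := fun hpC => hp.out.one_lt.ne' (Nat.eq_one_of_dvd_coprimes hcop hpB hpC)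
    exact (key C B hcop.symm hpC c b hc hb).symm
  · exact key B C hcop hpB b c hb hc

end Cfsg.Agent.H563.CopRgd
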