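import Mathlib
import Cfsg.Agent.H563.CopRgd
import Cfsg.Agent.H716.RGDAb
import Cfsg.Agent.H716.RGDAbMinus

/-!
# Coprime orbits in the defining characteristic: the families with root group data (helper563)

* `CharRow p H` : the row predicate `CopRow` for the prime `p` only; `copRow_of`, `CharRow.congr`;
* `charRow_of_rgdAb` : a generating root group datum of characteristic `p` with commutative torus;
* `psl`, `psp`, `psu`, `poOdd`, `poPlus`, `poMinus` (odd characteristic), `exc`, `tw`.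
-/

set_option autoImplicit false
set_option linter.unusedSectionVars false

namespace Cfsg.Agent.H563.CopRow

open Cfsg Cfsg.Agent.H505.Cop Cfsg.Agent.H716.RGDAb

universe u

/-- The row predicate for one prime. -/
def CharRow (p : ℕ) (H : Type*) [Group H] : Prop :=
  ∀ [Fact p.Prime] (V : Type) [AddCommGroup V] [Module (ZMod p) V] [Finite V]
    (ρ : Representation (ZMod p) H V), Irr ρ → Nontriv ρ →
    ∀ A B : Subgroup H, A.index.Coprime B.index →
    ∀ a b : V, (∀ x ∈ A, ρ x a = a) → (∀ x ∈ B, ρ x b = b) → a = 0 ∨ b = 0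

theorem copRow_of {H : Type*} [Group H] (h : ∀ p : ℕ, p.Prime → CharRow p H) : CopRow H := by
  intro p hp V _ _ _ ρ
  exact h p hp.out V ρ

theorem charRow_of {p : ℕ} {H : Type*} [Group H] (h : CopRow H) : CharRow p H := by
  intro hp V _ _ _ ρ
  exact h p V ρ

theorem CharRow.congr {p : ℕ} {G H : Type*} [Group G] [Group H] (e : G ≃* H) (h : CharRow p G) : CharRow p H := by
  intro hp V _ _ _ ρ hirr hnt A B hcop a b ha hb
  have h1 : ∀ g : G, (ρ.comp e.toMonoidHom : Representation (ZMod p) G V) g = ρ (e g) := fun _ => rfl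
  refine h V (ρ.comp e.toMonoidHom) ?_ ?_ (A.comap e.toMonoidHom) (B.comap e.toMonoidHom) ?_ a b
    (fun x hx => ha _ hx) (fun x hx => hb _ hx)
  · intro W hW
    refine hirr W fun h w hw => ?_
    have := hW (e.symm h) w hw
    rwa [h1, e.apply_symm_apply] at this
  · obtain ⟨h, v, hv⟩ := hnt
    refine ⟨e.symm h, v, ?_⟩
    rwa [h1, e.apply_symm_apply]
  · rw [Subgroup.index_comap_of_surjective _ e.surjective, Subgroup.index_comap_of_surjective _ e.surjective]
    exact hcop

theorem charRow_of_rgdAb {p : ℕ} {G : Type*} [Group G] [Finite G] (h : HasRGDAb p G) : CharRow p G := by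
  intro hp V _ _ _ ρ hirr hnt A B hcop a b ha hb
  obtain ⟨l, M, A', h, T, n, X, hW, R, hX, hab⟩ := h
  have : FiniteDimensional (ZMod p) V := Module.Finite.of_finite
  refine CopRgd.copRow_char R hab ?_ ρ hirr hnt hcop ha hb
  rw [eq_top_iff, ← hX]
  exact le_sup_right

section rows

variable {p : ℕ} {G : Type*} [Group G] [Finite G]

theorem psl (h : IsPSLChar p G) : CharRow p G := by
  intro hp
  obtain ⟨F, _, _, _, n, hn, -, ⟨e⟩⟩ := h
  obtain ⟨n, rfl⟩ : ∃ k, n = k + 1 := ⟨n - 1, by omega⟩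
  exact charRow_of_rgdAb ((ab_PSL n).of_equiv e.symm)

theorem psp (h : IsPSpChar p G) : CharRow p G := by
  intro hp
  obtain ⟨F, _, _, _, m, hm, -, ⟨e⟩⟩ := h
  exact charRow_of_rgdAb ((ab_PSp (by omega)).of_equiv e.symm)

theorem psu (h : IsPSUChar p G) : CharRow p G := by
  intro hp
  obtain ⟨F, _, _, _, n, q, hF, hn, -, ⟨e⟩⟩ := h
  exact charRow_of_rgdAb ((ab_PSU hF hn).of_equiv e.symm)

theorem ne_two_of_odd {F : Type*} [Field F] [Fintype F] [CharP F p] (hodd : Odd (Fintype.card F)) : (2 : F) ≠ 0 := by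
  intro h2
  have h3 : CharP F 2 := CharTwo.of_one_ne_zero_of_two_eq_zero one_ne_zero h2
  obtain ⟨k, -, hk⟩ := FiniteField.card F 2
  rw [hk] at hodd
  exact (Nat.not_even_iff_odd.2 hodd) (even_two.pow_of_ne_zero k.ne_zero)

theorem two_ne (hp2 : p ≠ 2) {F : Type*} [Field F] [CharP F p] : (2 : F) ≠ 0 := by
  intro h2
  have h3 : CharP F 2 := CharTwo.of_one_ne_zero_of_two_eq_zero one_ne_zero h2
  exact hp2 (CharP.eq F ‹CharP F p› h3)

theorem poOdd (h : IsPOmegaOddChar p G) : CharRow p G := by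
  intro hp
  obtain ⟨F, _, _, _, m, hm, hodd, ⟨e⟩⟩ := h
  exact charRow_of_rgdAb ((ab_PO_odd (ne_two_of_odd (p := p) hodd) (by omega)).of_equiv e.symm)

theorem poPlus (h : IsPOmegaPlusChar p G) : CharRow p G := by
  intro hp
  obtain ⟨F, _, _, _, m, hm, ⟨e⟩⟩ := h
  obtain ⟨n, rfl⟩ : ∃ n, m = n + 3 := ⟨m - 3, by omega⟩
  exact charRow_of_rgdAb ((ab_PO_plus n).of_equiv e.symm)

theorem poMinus_odd (hp2 : p ≠ 2) (h : IsPOmegaMinusChar p G) : CharRow p G := by
  intro hp
  obtain ⟨F, _, _, _, m, a, b, hm, hab, ⟨e⟩⟩ := h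
  exact charRow_of_rgdAb ((ab_PO_minus (two_ne hp2) hab (by omega)).of_equiv e.symm)

theorem exc (h : IsExceptionalChevChar p G) : CharRow p G := charRow_of_rgdAb (ab_exc h)

theorem tw (h : IsTwistedE6D4Char p G) : CharRow p G := charRow_of_rgdAb (ab_tw h)

end rows

end Cfsg.Agent.H563.CopRow
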