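import Mathlib
import Cfsg.Agent.Mrg.Omega.ML.Ex.Ext
import Cfsg.Agent.H505.Cop.Red
import Cfsg.Agent.H563.CopRow
import Cfsg.Agent.H716.SplitAb

/-!
# Coprime orbits in the defining characteristic: split (B,N)-pairs (helper563)

`S : Sys Δ G p` (a split (B,N)-pair of characteristic `p` seen through its building), `V` irreducible, `p V = 0`.

* `star` : opposite panels: every chamber opposite `d` is moved to the panel of `c` by an element fixing the opposite
  panel of `d`;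
* `Cm_eq` : if `C_V(U y)` is constant on the `i`-panel of `c`, then `[V, U z]` is constant on the opposite panel of `d`;
* `PF c` : the pointwise stabiliser of `C_V(U c)`; `PC d` : the elements trivial on `V / [V, U d]`;
* `card_dvd` : `|PF c|` divides `|PF c ∩ PC d| |U c|`;
* `charRow_of_splitAb`, `charRow_of_lie` : the row predicate in the defining characteristic.
-/

set_option autoImplicit false
set_option linter.unusedSectionVars false

namespace Cfsg.Agent.H563.CopBldg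

open Cfsg.Agent.Tits.Core Cfsg.Agent.Tits.Core.Bldg Cfsg.Agent.Tits.Exchange Cfsg.Agent.Tits
open Cfsg.Agent.FixBN Cfsg.Agent.FixBN.Cox Cfsg.Agent.UGT.U2.FOne
open Cfsg.Agent.Omega.ML.LieRow Cfsg.Agent.Omega.ML.LieRow.CRB

section

variable {I : Type*} {M : CoxeterMatrix I} {W : Type*} [Group W] {cs : CoxeterSystem M W} {C : Type*}
  {Δ : Bldg cs C} [F : OppRes.Cox cs]

local prefix:100 "ℓ" => cs.length

theorem opp_symm' {x y : C} (h : Δ.δ x y = w0 cs) : Δ.δ y x = w0 cs := by rw [Δ.symm x y, h, F.w0_inv]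

theorem up {x y z : C} {i : I} (h : Δ.δ x y = w0 cs * cs.simple i) (hyz : Δ.δ y z = cs.simple i) :
    Δ.δ x z = w0 cs := by
  have h1 := Δ.step_lt x y z i hyz (by
    rw [h, mul_assoc, cs.simple_mul_simple_self, mul_one]
    have := F.len_w0_mul (cs.simple i)
    rw [cs.length_simple] at this
    omega)
  rw [h1, h, mul_assoc, cs.simple_mul_simple_self, mul_one]

theorem flip {x y : C} {i : I} (h : Δ.δ x y = w0 cs * cs.simple (Core.op cs i)) :
    Δ.δ y x = w0 cs * cs.simple i := by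
  rw [Δ.symm x y, h, F.op, mul_inv_rev, mul_inv_rev, mul_inv_rev, F.w0_inv, cs.inv_simple]
  have h1 := F.w0_mul_self
  calc w0 cs * (cs.simple i * w0 cs) * w0 cs = w0 cs * cs.simple i * (w0 cs * w0 cs) := by group
    _ = _ := by rw [h1, mul_one]

theorem flip' {x y : C} {i : I} (h : Δ.δ x y = w0 cs * cs.simple i) :
    Δ.δ y x = w0 cs * cs.simple (Core.op cs i) := by
  rw [Δ.symm x y, h, F.op, mul_inv_rev, F.w0_inv, cs.inv_simple]
  have h1 := F.w0_mul_self
  calc cs.simple i * w0 cs = (w0 cs * w0 cs) * cs.simple i * w0 cs := by rw [h1, one_mul]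
    _ = _ := by group

theorem simple_ne {i : I} : w0 cs * cs.simple i ≠ w0 cs := by
  intro h
  have h1 : cs.simple i = 1 := mul_eq_left.1 h
  have h2 := cs.length_simple i
  rw [h1, cs.length_one] at h2
  omega

variable {G : Type*} [Group G] [MulAction G C] {p : ℕ} {S : Sys Δ G p}

/-- **opposite panels** -/
theorem star {c d e : C} {i : I} (hcd : Δ.Opp c d) (hde : Δ.Opp d e) :
    ∃ y ∈ Δ.Pan i c, ∃ q ∈ S.U d, (∀ z ∈ Δ.Pan (Core.op cs i) d, q • z = z) ∧ q • y = e := by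
  have hcd' : Δ.δ c d = w0 cs := hcd
  have hde' : Δ.δ d e = w0 cs := hde
  obtain ⟨d₁, hd, he⟩ := Δ.exists_step e d (Core.op cs i)
  rw [opp_symm' hde'] at he
  obtain ⟨y, hy, hyd₁, hyd⟩ : ∃ y ∈ Δ.Pan i c, Δ.δ y d₁ = w0 cs * cs.simple (Core.op cs i) ∧ Δ.δ y d = w0 cs := by
    rcases Δ.step c d d₁ _ hd with h | h
    · exact ⟨c, Or.inl rfl, by rw [h, hcd'], hcd'⟩
    · rw [hcd'] at h
      obtain ⟨y, hy, hy'⟩ := Δ.exists_step d₁ c i
      rw [opp_symm' h] at hy'
      have h1 := flip' hy'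
      exact ⟨y, Or.inr hy, h1, up h1 (Δ.δ_symm_simple hd)⟩
  obtain ⟨q, hq, hqy⟩ := S.trans d y e (opp_symm' hyd) hde
  refine ⟨y, hy, q, hq, ?_, hqy⟩
  refine S.pan d d₁ _ hd q hq ?_
  by_contra hne
  have h1 : Δ.δ d (q • d₁) = cs.simple (Core.op cs i) := by
    rw [← hd, ← S.iso q d d₁, S.fix d q hq]
  have h2 : Δ.δ e (q • d₁) = w0 cs * cs.simple (Core.op cs i) := by
    rw [← hqy, S.iso, hyd₁]
  have h3 : Δ.δ (q • d₁) d₁ = cs.simple (Core.op cs i) := Δ.δ_eq_of_mem_Pan (Or.inr h1) (Or.inr hd) hne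
  have h4 := up h2 h3
  rw [he] at h4
  exact simple_ne h4

variable {V : Type*} [AddCommGroup V] [DistribMulAction G V]

/-- `[V, Q]`, `Q` the subgroup of `U d` fixing the `i`-panel of `d` -/
def CQ (S : Sys Δ G p) (i : I) (d : C) : AddSubgroup V :=
  AddSubgroup.closure {x | ∃ q ∈ S.U d, (∀ z ∈ Δ.Pan i d, q • z = z) ∧ ∃ v : V, x = q • v - v}

theorem CQ_le {i : I} {d z : C} (hz : z ∈ Δ.Pan i d) : CQ (V := V) S i d ≤ Cm S z := by
  unfold CQ
  rw [AddSubgroup.closure_le]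
  rintro _ ⟨q, hq, hqz, v, rfl⟩
  exact mem_Cm S (S.mem_U_of_fix hq (hqz z hz)) v

variable [Fintype C]

theorem Fx_le_of_opp {L : AddSubgroup V} {d : C} (h : ∀ e, Δ.Opp d e → Fx S e ≤ L) (e : C) : Fx S e ≤ L :=
  gal (Δ := Δ) (fun _ _ h => le_of_panel (fam_Fx S) (fun _ c => le_Fx S (fam_TT (fam_Fx S) _) c) h) h e

theorem iSup_Fx [Fact p.Prime] [Finite V] [Nontrivial V] (hp : ∀ v : V, p • v = 0) (hirr : CRB.Irr G V) [Nonempty C] :
    (⨆ e, Fx (V := V) S e) = ⊤ := by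
  refine (hirr (⨆ e, Fx S e) ?_).resolve_left ?_
  · intro g v hv
    have h3 : (⨆ e, Fx (V := V) S e) ≤ (⨆ e, Fx (V := V) S e).comap (DistribSMul.toAddMonoidHom V g) :=
      iSup_le fun e x hx => AddSubgroup.mem_iSup_of_mem (g • e) ((fam_Fx S).smul g e x hx)
    exact h3 hv
  · intro h3
    obtain ⟨c⟩ := (inferInstance : Nonempty C)
    obtain ⟨v, hv, hfv⟩ := exists_fixed (P := S.U c) (V := V) (S.isP c) hp
    have h1 : v ∈ Fx S c := fun u hu => hfv ⟨u, hu⟩
    have h2 : Fx (V := V) S c = ⊥ := by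
      rw [eq_bot_iff, ← h3]
      exact le_iSup (Fx (V := V) S) c
    rw [h2, AddSubgroup.mem_bot] at h1
    exact hv h1

theorem Fx_ne [Fact p.Prime] [Finite V] [Nontrivial V] (hp : ∀ v : V, p • v = 0) (c : C) :
    ∃ v ∈ Fx (V := V) S c, v ≠ 0 := by
  obtain ⟨v, hv, hfv⟩ := exists_fixed (P := S.U c) (V := V) (S.isP c) hp
  exact ⟨v, fun u hu => hfv ⟨u, hu⟩, hv⟩

theorem sup_CQ [Fact p.Prime] [Finite V] [Nontrivial V] (hp : ∀ v : V, p • v = 0) (hirr : CRB.Irr G V)
    {c d : C} {i : I} (hF : ∀ y ∈ Δ.Pan i c, Fx (V := V) S y = Fx S c) (hcd : Δ.Opp c d) :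
    Fx (V := V) S c ⊔ CQ S (Core.op cs i) d = ⊤ := by
  have : Nonempty C := ⟨c⟩
  rw [eq_top_iff, ← iSup_Fx (S := S) hp hirr]
  refine iSup_le fun e => Fx_le_of_opp (S := S) (d := d) ?_ e
  intro e he v hv
  obtain ⟨y, hy, q, hq, hqz, rfl⟩ := star (S := S) (i := i) hcd he
  have h1 : q⁻¹ • v ∈ Fx S y := by
    have := (fam_Fx S).smul q⁻¹ (q • y) v hv
    rwa [inv_smul_smul] at this
  rw [hF y hy] at h1
  have h2 : v = q⁻¹ • v + -(q⁻¹ • v - v) := by abel
  rw [h2]
  refine add_mem (AddSubgroup.mem_sup_left h1) (neg_mem (AddSubgroup.mem_sup_right ?_))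
  exact AddSubgroup.subset_closure ⟨q⁻¹, inv_mem hq, fun z hz => by rw [inv_smul_eq_iff, hqz z hz], v, rfl⟩

theorem sup_Cm [Fact p.Prime] [Finite V] [Nontrivial V] (hp : ∀ v : V, p • v = 0) (hirr : CRB.Irr G V)
    {c d : C} (hcd : Δ.Opp c d) : Fx (V := V) S c ⊔ Cm S d = ⊤ := by
  have : Nonempty C := ⟨c⟩
  rw [eq_top_iff, ← iSup_Fx (S := S) hp hirr]
  refine iSup_le fun e => Fx_le_of_opp (S := S) (d := d) ?_ e
  intro e he v hv
  obtain ⟨u, hu, rfl⟩ := S.trans d c e (opp_symm' hcd) he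
  have h1 : u⁻¹ • v ∈ Fx S c := by
    have := (fam_Fx S).smul u⁻¹ (u • c) v hv
    rwa [inv_smul_smul] at this
  have h2 : v = u⁻¹ • v + -(u⁻¹ • v - v) := by abel
  rw [h2]
  exact add_mem (AddSubgroup.mem_sup_left h1) (neg_mem (AddSubgroup.mem_sup_right (mem_Cm S (inv_mem hu) v)))

/-- **the opposite panel** -/
theorem Cm_eq [Fact p.Prime] [Finite V] [Nontrivial V] (hp : ∀ v : V, p • v = 0) (hirr : CRB.Irr G V)
    {c d : C} {i : I} (hF : ∀ y ∈ Δ.Pan i c, Fx (V := V) S y = Fx S c) (hcd : Δ.Opp c d) :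
    ∀ z ∈ Δ.Pan (Core.op cs i) d, Cm (V := V) S z = Cm S d := by
  have hcd' : Δ.δ c d = w0 cs := hcd
  have key : ∀ z ∈ Δ.Pan (Core.op cs i) d, Cm (V := V) S z = CQ S (Core.op cs i) d := by
    intro z hz
    refine le_antisymm ?_ (CQ_le hz)
    intro v hv
    have h1 : v ∈ Fx (V := V) S c ⊔ CQ S (Core.op cs i) d := by
      rw [sup_CQ hp hirr hF hcd]; trivial
    obtain ⟨f, hf, m, hm, rfl⟩ := AddSubgroup.mem_sup.1 h1
    have hf' : f ∈ Cm S z := by
      have := sub_mem hv (CQ_le hz hm)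
      rwa [add_sub_cancel_right] at this
    obtain ⟨y, hy, hyz⟩ : ∃ y ∈ Δ.Pan i c, Δ.Opp y z := by
      rcases hz with rfl | hz
      · exact ⟨c, Or.inl rfl, hcd⟩
      · rcases Δ.step c d z _ hz with h | h
        · rw [hcd'] at h
          obtain ⟨y, hy, -⟩ := Δ.exists_step z c i
          exact ⟨y, Or.inr hy, opp_symm' (up (flip h) hy)⟩
        · exact ⟨c, Or.inl rfl, by
            show Δ.δ c z = w0 cs
            rw [h, hcd']⟩
    rw [inf_comm hp hirr hyz (v := f) (by rw [hF y hy]; exact hf) hf', zero_add]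
    exact hm
  intro z hz
  rw [key z hz, key d (Or.inl rfl)]

/-! ### The two pointwise stabilisers -/

/-- the pointwise stabiliser of `C_V(U c)` -/
def PF (S : Sys Δ G p) (V : Type*) [AddCommGroup V] [DistribMulAction G V] (c : C) : Subgroup G where
  carrier := {g | ∀ v ∈ Fx (V := V) S c, g • v = v}
  one_mem' := fun v _ => one_smul G v
  mul_mem' := by
    intro a b ha hb v hv
    rw [mul_smul, hb v hv, ha v hv]
  inv_mem' := by
    intro a ha v hv
    rw [inv_smul_eq_iff, ha v hv]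

/-- the elements which are trivial on `V / [V, U d]` -/
def PC (S : Sys Δ G p) (V : Type*) [AddCommGroup V] [DistribMulAction G V] (d : C) : Subgroup G where
  carrier := {g | ∀ v : V, g • v - v ∈ Cm (V := V) S d}
  one_mem' := fun v => by rw [one_smul, sub_self]; exact zero_mem _
  mul_mem' := by
    intro a b ha hb v
    have h1 := add_mem (ha (b • v)) (hb v)
    have e : a • b • v - b • v + (b • v - v) = (a * b) • v - v := by rw [mul_smul]; abel
    rwa [e] at h1
  inv_mem' := by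
    intro a ha v
    have h1 := neg_mem (ha (a⁻¹ • v))
    have e : -(a • a⁻¹ • v - a⁻¹ • v) = a⁻¹ • v - v := by rw [smul_inv_smul]; abel
    rwa [e] at h1

theorem mem_PF {c : C} {g : G} : g ∈ PF S V c ↔ ∀ v ∈ Fx (V := V) S c, g • v = v := Iff.rfl

theorem mem_PC {d : C} {g : G} : g ∈ PC S V d ↔ ∀ v : V, g • v - v ∈ Cm (V := V) S d := Iff.rfl

theorem U_le_PF {c : C} : S.U c ≤ PF S V c := fun u hu _ hv => hv u hu

theorem U_le_PC {d : C} : S.U d ≤ PC S V d := fun _ hu v => mem_Cm S hu v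

theorem Fx_smul_eq {c : C} {a : G} (ha : a ∈ PF S V c) : Fx (V := V) S (a • c) = Fx S c := by
  apply le_antisymm
  · intro v hv
    have h1 : a⁻¹ • v ∈ Fx S c := by
      have := (fam_Fx S).smul a⁻¹ (a • c) v hv
      rwa [inv_smul_smul] at this
    have h2 := ha _ h1
    rw [smul_inv_smul] at h2
    rw [h2]; exact h1
  · intro v hv
    have := (fam_Fx S).smul a c v hv
    rwa [ha v hv] at this

theorem mem_PF_of [Fact p.Prime] [Finite V] [Nontrivial V] (hp : ∀ v : V, p • v = 0) (hirr : CRB.Irr G V)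
    {c d : C} (hcd : Δ.Opp c d) {u : G} (hu : u ∈ PC S V d) (h : Fx (V := V) S (u • c) = Fx S c) : u ∈ PF S V c := by
  intro v hv
  have h1 := (fam_Fx S).smul u c v hv
  rw [h] at h1
  exact sub_eq_zero.1 (inf_comm hp hirr hcd (sub_mem h1 hv) (hu v))

/-- one step in a panel -/
theorem step_M [Fact p.Prime] [Finite V] [Nontrivial V] (hth : Δ.Thick) (hp : ∀ v : V, p • v = 0)
    (hirr : CRB.Irr G V) {c d : C} (hcd : Δ.Opp c d) {i : I} (hi : i ∈ tp Δ (PF S V c) c) {y : C}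
    (hy : Δ.δ c y = cs.simple i) : ∃ m ∈ PF S V c ⊓ PC S V d, m • c = y := by
  have hcd' : Δ.δ c d = w0 cs := hcd
  have hF : ∀ y ∈ Δ.Pan i c, Fx (V := V) S y = Fx S c := by
    rintro y (rfl | hy)
    · rfl
    · obtain ⟨g, hg, rfl⟩ := exists_smul_pan S U_le_PF hi hy
      exact Fx_smul_eq hg
  have hC := Cm_eq hp hirr hF hcd
  rcases Δ.step d c y i hy with h | h
  · rw [opp_symm' hcd'] at h
    obtain ⟨a, b, hab, ha, hb⟩ := hth d (Core.op cs i)
    obtain ⟨d', hd', hcd₁⟩ : ∃ d', Δ.δ d d' = cs.simple (Core.op cs i) ∧ Δ.δ c d' = w0 cs := by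
      rcases Δ.step c d a _ ha with h1 | h1
      · rw [hcd'] at h1
        exact ⟨b, hb, up h1 (Δ.δ_eq_of_mem_Pan (Or.inr ha) (Or.inr hb) hab)⟩
      · exact ⟨a, ha, by rw [h1, hcd']⟩
    have hyd' : Δ.δ y d' = w0 cs := up (flip' h) hd'
    obtain ⟨u, hu, huc⟩ := S.trans d' c y (opp_symm' hcd₁) (opp_symm' hyd')
    have huC : u ∈ PC S V d := by
      intro v
      rw [← hC d' (Or.inr hd')]
      exact mem_Cm S hu v
    refine ⟨u, ⟨mem_PF_of hp hirr hcd huC ?_, huC⟩, huc⟩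
    rw [huc]
    exact hF y (Or.inr hy)
  · rw [opp_symm' hcd'] at h
    obtain ⟨u, hu, huc⟩ := S.trans d c y (opp_symm' hcd') h
    have huC : u ∈ PC S V d := U_le_PC hu
    refine ⟨u, ⟨mem_PF_of hp hirr hcd huC ?_, huC⟩, huc⟩
    rw [huc]
    exact hF y (Or.inr hy)

theorem trans_M [Fact p.Prime] [Finite V] [Nontrivial V] (hth : Δ.Thick) (hp : ∀ v : V, p • v = 0)
    (hirr : CRB.Irr G V) {c d : C} (hcd : Δ.Opp c d) {g : G} (hg : g ∈ PF S V c) :
    ∃ m ∈ PF S V c ⊓ PC S V d, m • c = g • c := by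
  refine Δ.Res_induction (J := tp Δ (PF S V c) c) (x := c) (p := fun y => ∃ m ∈ PF S V c ⊓ PC S V d, m • c = y)
    ⟨1, one_mem _, one_smul _ _⟩ ?_ (delta_mem_tp S hth U_le_PF g hg)
  rintro y - z i hi hyz ⟨m, hm, rfl⟩
  have h1 : Δ.δ c (m⁻¹ • z) = cs.simple i := by
    rw [← hyz, ← S.iso m c, smul_inv_smul]
  obtain ⟨k, hk, hkz⟩ := step_M hth hp hirr hcd hi h1
  exact ⟨m * k, mul_mem hm hk, by rw [mul_smul, hkz, smul_inv_smul]⟩

/-! ### counting -/

omit F [Fintype C] in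
theorem card_eq (H K : Subgroup G) : Nat.card ↥(K ⊓ H) * K.relIndex H = Nat.card H := by
  rw [← Subgroup.inf_relIndex_right K H, Subgroup.relIndex,
    ← Nat.card_congr (Subgroup.subgroupOfEquivOfLe (inf_le_right : K ⊓ H ≤ H)).toEquiv]
  exact ((K ⊓ H).subgroupOf H).card_mul_index

omit F [Fintype C] in
theorem relIndex_stab (H : Subgroup G) (x : C) :
    (MulAction.stabilizer G x).relIndex H = {y : C | ∃ h ∈ H, h • x = y}.ncard := by
  have h1 : (MulAction.stabilizer G x).subgroupOf H = MulAction.stabilizer H x := by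
    ext h
    rfl
  rw [Subgroup.relIndex, h1, MulAction.index_stabilizer]
  congr 1
  ext y
  constructor
  · rintro ⟨h, rfl⟩
    exact ⟨h, h.2, rfl⟩
  · rintro ⟨h, hh, rfl⟩
    exact ⟨⟨h, hh⟩, rfl⟩

variable [Finite G]

theorem card_dvd [Fact p.Prime] [Finite V] [Nontrivial V] (hth : Δ.Thick) (hp : ∀ v : V, p • v = 0)
    (hirr : CRB.Irr G V) {c d : C} (hcd : Δ.Opp c d) :
    Nat.card (PF S V c) ∣ Nat.card ↥(PF S V c ⊓ PC S V d) * Nat.card (S.U c) := by
  have hcd' : Δ.δ c d = w0 cs := hcd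
  set Sc := MulAction.stabilizer G c with hSc
  set Sd := MulAction.stabilizer G d with hSd
  -- the two orbits of `c`
  have h1 : Sc.relIndex (PF S V c) = Sc.relIndex (PF S V c ⊓ PC S V d) := by
    rw [relIndex_stab, relIndex_stab]
    congr 1
    ext y
    constructor
    · rintro ⟨g, hg, rfl⟩
      exact trans_M hth hp hirr hcd hg
    · rintro ⟨g, hg, rfl⟩
      exact ⟨g, hg.1, rfl⟩
  -- the orbit of `d` under the stabiliser of `c`
  have h2 : Sd.relIndex (Sc ⊓ PF S V c) = Sd.relIndex (S.U c) := by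
    rw [relIndex_stab, relIndex_stab]
    congr 1
    ext y
    constructor
    · rintro ⟨g, ⟨hgc, hg⟩, rfl⟩
      have h3 : Δ.Opp c (g • d) := by
        show Δ.δ c (g • d) = w0 cs
        have h4 : g • c = c := hgc
        rw [← hcd', ← S.iso g c d, h4]
      exact S.trans c d (g • d) hcd h3
    · rintro ⟨u, hu, rfl⟩
      exact ⟨u, ⟨S.fix c u hu, U_le_PF hu⟩, rfl⟩
  have h3 : Sd ⊓ (Sc ⊓ PF S V c) ≤ Sc ⊓ (PF S V c ⊓ PC S V d) := by
    rintro g ⟨hgd, hgc, hg⟩
    refine ⟨hgc, hg, ?_⟩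
    intro v
    have h4 : v ∈ Fx (V := V) S c ⊔ Cm S d := by
      rw [sup_Cm hp hirr hcd]; trivial
    obtain ⟨f, hf, m, hm, rfl⟩ := AddSubgroup.mem_sup.1 h4
    have h5 : g • (f + m) - (f + m) = g • m - m := by
      rw [smul_add, hg f hf]; abel
    rw [h5]
    have h6 := smul_mem_Cm S g hm
    have h7 : g • d = d := hgd
    rw [h7] at h6
    exact sub_mem h6 hm
  have e1 := card_eq (PF S V c) Sc
  have e2 := card_eq (Sc ⊓ PF S V c) Sd
  have e3 := card_eq (PF S V c ⊓ PC S V d) Sc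
  have e4 : Sd.relIndex (S.U c) ∣ Nat.card (S.U c) := Subgroup.relIndex_dvd_card _ _
  have e5 : Nat.card ↥(Sd ⊓ (Sc ⊓ PF S V c)) ∣ Nat.card ↥(Sc ⊓ (PF S V c ⊓ PC S V d)) :=
    Subgroup.card_dvd_of_le h3
  rw [← e1, ← e3, ← e2, h2, h1]
  calc Nat.card ↥(Sd ⊓ (Sc ⊓ PF S V c)) * Sd.relIndex (S.U c) * Sc.relIndex (PF S V c ⊓ PC S V d)
      ∣ Nat.card ↥(Sc ⊓ (PF S V c ⊓ PC S V d)) * Nat.card (S.U c) * Sc.relIndex (PF S V c ⊓ PC S V d) :=
        Nat.mul_dvd_mul (Nat.mul_dvd_mul e5 e4) dvd_rfl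
    _ = _ := by ring

theorem not_dvd_index_U [Fact p.Prime] (hth : Δ.Thick) (c : C) : ¬ p ∣ (S.U c).index := by
  obtain ⟨P⟩ : Nonempty (Sylow p G) := inferInstance
  obtain ⟨x, hx⟩ := S.exists_fix P P.isPGroup'
  have h1 : (P : Subgroup G) ≤ S.U x := S.max x P P.isPGroup' hx
  have h2 : S.U x = P := P.is_maximal' (S.isP x) h1
  obtain ⟨g, rfl⟩ := exists_smul_top S hth x c
  have h3 : S.U (g • x) = (S.U x).map (MulAut.conj g).toMonoidHom := by
    ext u
    constructor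
    · intro hu
      refine ⟨g⁻¹ * u * g, ?_, ?_⟩
      · have h3 : g * (g⁻¹ * u * g) * g⁻¹ ∈ S.U (g • x) := by
          have : g * (g⁻¹ * u * g) * g⁻¹ = u := by group
          rwa [this]
        exact S.conj_mem_U_iff.1 h3
      · change g * (g⁻¹ * u * g) * g⁻¹ = u
        group
    · rintro ⟨v, hv, rfl⟩
      exact S.conj_mem_U hv g
  rw [h3]
  have h4 : ((S.U x).map (MulAut.conj g).toMonoidHom).index = (S.U x).index :=
    Subgroup.index_map_equiv (S.U x) (MulAut.conj g)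
  rw [h4, h2]
  exact P.not_dvd_index

theorem index_dvd [hpp : Fact p.Prime] [Finite V] [Nontrivial V] (hth : Δ.Thick) (hp : ∀ v : V, p • v = 0)
    (hirr : CRB.Irr G V) {c d : C} (hcd : Δ.Opp c d) {A : Subgroup G} (hA : A ≤ PF S V c) :
    (PC S V d).index ∣ A.index := by
  obtain ⟨a, ha⟩ : ∃ a, Nat.card (S.U c) = p ^ a := (IsPGroup.iff_card).1 (S.isP c)
  have h1 := card_dvd (S := S) (V := V) hth hp hirr hcd
  have h2 : Nat.card A ∣ Nat.card (PC S V d) * p ^ a := by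
    rw [← ha]
    exact (Subgroup.card_dvd_of_le hA).trans (h1.trans (Nat.mul_dvd_mul (Subgroup.card_dvd_of_le inf_le_right) dvd_rfl))
  obtain ⟨t, ht⟩ := h2
  have h3 : Nat.card (PC S V d) * (PC S V d).index = Nat.card A * A.index := by
    rw [Subgroup.card_mul_index, Subgroup.card_mul_index]
  have h4 : (PC S V d).index * t = A.index * p ^ a := by
    have hpos : 0 < Nat.card A := Nat.card_pos
    apply Nat.eq_of_mul_eq_mul_left hpos
    calc Nat.card A * ((PC S V d).index * t) = (Nat.card A * t) * (PC S V d).index := by ring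
      _ = (Nat.card (PC S V d) * (PC S V d).index) * p ^ a := by rw [← ht]; ring
      _ = _ := by rw [h3]; ring
  have h5 : ¬ p ∣ (PC S V d).index := fun h =>
    not_dvd_index_U hth d (h.trans (Subgroup.index_dvd_of_le U_le_PC))
  have h6 : (PC S V d).index ∣ A.index * p ^ a := ⟨t, h4.symm⟩
  exact Nat.Coprime.dvd_of_dvd_mul_right
    (Nat.Coprime.pow_right a ((Nat.Prime.coprime_iff_not_dvd hpp.out).2 h5).symm) h6

end

open Cfsg Cfsg.Agent.H505.Cop Cfsg.Agent.H563.CopRow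

open Cfsg.Agent.Tits.OfBN Cfsg.Agent.Schreier.BNSch in
/-- **Split (B,N)-pairs with `B / U` abelian.** -/
theorem charRow_of_splitAb {p : ℕ} {K : Type*} [Group K] [Finite K] (hK : HasSplitAb p K) : CharRow p K := by
  intro hpp V _ _ _ ρ hirr hnt A B hcop a b ha hb
  obtain ⟨P, U, hne, h, hc⟩ := hK
  have hN : ((P.B ⊓ P.N).subgroupOf P.N).Normal := normal_subgroupOf P
  obtain ⟨M, cs, hcs⟩ := S0320.result P
  have hI : Finite P.S := FixBN.OfBN.finite_I (Equiv.refl P.S)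
  have hIn : Nonempty P.S := hne.to_subtype
  let S := FixBN.OfBN.sys (Equiv.refl P.S) cs hcs h
  have hth := thick P (Equiv.refl P.S) cs hcs
  have hab : ∀ c, ∀ a b : K, a • c = c → b • c = c → a * b * a⁻¹ * b⁻¹ ∈ S.U c := by
    intro c a b ha hb
    induction c using QuotientGroup.induction_on with
    | _ g =>
      have ha' := FixBN.OfBN.smul_mk_eq.1 ha
      have hb' := FixBN.OfBN.smul_mk_eq.1 hb
      have h1 := hc _ ha' _ hb'
      show _ ∈ FixBN.OfBN.UU P U (QuotientGroup.mk g)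
      rw [FixBN.OfBN.mem_UU h]
      have e : g⁻¹ * a * g * (g⁻¹ * b * g) * (g⁻¹ * a * g)⁻¹ * (g⁻¹ * b * g)⁻¹ = g⁻¹ * (a * b * a⁻¹ * b⁻¹) * g := by
        group
      rwa [e] at h1
  have hfC : Fintype (K ⧸ P.B) := Fintype.ofFinite _
  let _ : DistribMulAction K V := DistribMulAction.compHom V (ρ : K →* Module.End (ZMod p) V)
  have hsm : ∀ (g : K) (v : V), g • v = ρ g v := fun _ _ => rfl
  have hpV : ∀ v : V, p • v = 0 := by
    intro v
    have h1 : ((p : ℕ) : ZMod p) • v = 0 := by rw [ZMod.natCast_self, zero_smul]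
    rwa [Nat.cast_smul_eq_nsmul] at h1
  have hirr' : CRB.Irr K V := by
    intro L hL
    have h1 := hirr (AddSubgroup.toZModSubmodule p L) (fun g w hw => hL g w hw)
    rcases h1 with h1 | h1
    · left
      ext v
      rw [AddSubgroup.mem_bot, ← Submodule.mem_bot (R := ZMod p), ← h1]
      rfl
    · right
      ext v
      have h2 : v ∈ AddSubgroup.toZModSubmodule p L := by rw [h1]; trivial
      exact ⟨fun _ => trivial, fun _ => h2⟩
  have key : ∀ (A B : Subgroup K), A.index.Coprime B.index → ¬ p ∣ A.index → ∀ a b : V, (∀ x ∈ A, ρ x a = a) →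
      (∀ x ∈ B, ρ x b = b) → a = 0 ∨ b = 0 := by
    intro A B hcop hpA a b ha hb
    by_contra hcon
    push Not at hcon
    obtain ⟨ha0, hb0⟩ := hcon
    have hV : Nontrivial V := ⟨a, 0, ha0⟩
    -- a Sylow subgroup
    obtain ⟨Q₀⟩ : Nonempty (Sylow p A) := inferInstance
    have h1 : ¬ p ∣ ((Q₀ : Subgroup A).map A.subtype).index := by
      rw [Subgroup.index_map_subtype]
      intro hd
      rcases hpp.out.dvd_mul.mp hd with h | h
      · exact Q₀.not_dvd_index h
      · exact hpA h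
    have h2 : IsPGroup p ((Q₀ : Subgroup A).map A.subtype) := Q₀.isPGroup'.map _
    obtain ⟨c, hc⟩ := S.exists_fix _ h2
    have h3 : (Q₀ : Subgroup A).map A.subtype ≤ S.U c := S.max c _ h2 hc
    have h4 : S.U c = (Q₀ : Subgroup A).map A.subtype := (h2.toSylow h1).is_maximal' (S.isP c) h3
    have h5 : S.U c ≤ A := by
      rw [h4]
      exact Subgroup.map_subtype_le _
    have h6 : A ≤ PF S V c := fix_all S hth hpV hirr' (hab c) h5 ha0 ha
    obtain ⟨d, hd⟩ := Bldg.exists_δ (bldg P (Equiv.refl P.S) cs hcs) c (w0 cs)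
    have h7 := index_dvd (S := S) (V := V) hth hpV hirr' (d := d) hd h6
    -- the functional
    obtain ⟨f, hf, hf0⟩ := Fx_ne (S := S) (V := V) hpV c
    have h8 : AddSubgroup.toZModSubmodule p (Cm (V := V) S d) < ⊤ := by
      rw [lt_top_iff_ne_top]
      intro h9
      apply hf0
      refine inf_comm hpV hirr' (c := c) (d := d) hd hf ?_
      have h10 : f ∈ AddSubgroup.toZModSubmodule p (Cm (V := V) S d) := by rw [h9]; trivial
      exact h10
    obtain ⟨φ, hφ0, hφ⟩ := Submodule.exists_le_ker_of_lt_top _ h8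
    have h9 : B.index.Coprime (PC S V d).index := (Nat.Coprime.coprime_dvd_left h7 hcop).symm
    rcases pairing hirr hnt B (PC S V d) h9 b hb φ (fun x hx v => by
      have h10 : ρ x v - v ∈ LinearMap.ker φ := hφ (hx v)
      rwa [LinearMap.mem_ker, map_sub, sub_eq_zero] at h10) with h10 | h10
    · exact hb0 h10
    · exact hφ0 h10
  by_cases hpA : p ∣ A.index
  · have hpB : ¬ p ∣ B.index := fun hpB => hpp.out.one_lt.ne' (Nat.eq_one_of_dvd_coprimes hcop hpA hpB)
    exact (key B A hcop.symm hpB b a hb ha).symm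
  · exact key A B hcop hpA a b ha hb

/-- **Groups of Lie type in the defining characteristic.** -/
theorem charRow_of_lie {p : ℕ} {G : Type*} [Group G] [Finite G] [IsSimpleGroup G] (h : IsLieTypeChar p G) :
    CharRow p G := by
  intro hp
  exact charRow_of_splitAb (Cfsg.Agent.H716.SplitAb.hasSplitAb_of_lie hp.out h)

end Cfsg.Agent.H563.CopBldg
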